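import Mathlib

set_option autoImplicit false

/-! No simple group of order 459648 = 2^7 * 3^3 * 7 * 19. -/

namespace Cfsg.Lib.Small459648

open Subgroup MulAction

variable {G : Type*} [Group G] [Finite G] [IsSimpleGroup G]

lemma not_comm (hG : Nat.card G = 459648) : ¬ ∀ a b : G, a * b = b * a := by
  intro h
  letI : CommGroup G := { ‹Group G› with mul_comm := h }
  have h1 := IsSimpleGroup.prime_card (α := G)
  rw [hG] at h1
  norm_num at h1

lemma center_eq_bot (hG : Nat.card G = 459648) : center G = ⊥ := by
  rcases (inferInstance : (center G).Normal).eq_bot_or_eq_top with h | h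
  · exact h
  · exact absurd (fun a b => ((mem_center_iff.1 (h ▸ mem_top a : a ∈ center G)) b).symm)
      (not_comm hG)

lemma centralizer_ne_top (hG : Nat.card G = 459648) {t : G} (ht : t ≠ 1) :
    centralizer ({t} : Set G) ≠ ⊤ := by
  intro h
  apply ht
  have : t ∈ center G := mem_center_iff.2 fun g =>
    mem_centralizer_singleton_iff.1 (h ▸ mem_top g)
  rwa [center_eq_bot hG, mem_bot] at this

lemma normalCore_eq_bot {H : Subgroup G} (hH : H ≠ ⊤) : H.normalCore = ⊥ := by
  rcases H.normalCore_normal.eq_bot_or_eq_top with h | h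
  · exact h
  · exact absurd (top_le_iff.1 (h ▸ H.normalCore_le)) hH

lemma eq_one_of_forall_smul {H : Subgroup G} (hH : H ≠ ⊤) (g : G)
    (hg : ∀ x : G ⧸ H, g • x = x) : g = 1 := by
  have : g ∈ H.normalCore := by
    rw [normalCore_eq_ker, MonoidHom.mem_ker]
    exact Equiv.ext hg
  rwa [normalCore_eq_bot hH, mem_bot] at this

lemma index_ge (hG : Nat.card G = 459648) {H : Subgroup G} (hH : H ≠ ⊤) : 19 ≤ H.index := by
  by_contra hc
  have h1 : Function.Injective (MulAction.toPermHom G (G ⧸ H)) := by
    rw [← MonoidHom.ker_eq_bot_iff, ← normalCore_eq_ker, normalCore_eq_bot hH]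
  have h2 := card_dvd_of_injective _ h1
  rw [Nat.card_perm, hG] at h2
  have h3 : Nat.card (G ⧸ H) = H.index := rfl
  rw [h3] at h2
  have h4 : Nat.factorial H.index ∣ Nat.factorial 18 := Nat.factorial_dvd_factorial (by omega)
  have h5 := h2.trans h4
  norm_num [Nat.factorial] at h5

section WithP

variable (hG : Nat.card G = 459648) (P : Sylow 19 G)
include hG

lemma card_P [Fact (Nat.Prime 19)] : Nat.card (P : Subgroup G) = 19 := by
  rw [P.card_eq_multiplicity, hG]
  have : (459648).factorization 19 = 1 := by
    rw [Nat.factorization_def _ (Fact.out), show (459648 : ℕ) = 19 * 24192 from rfl,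
      padicValNat.mul (by norm_num) (by norm_num), padicValNat.self (by norm_num),
      padicValNat.eq_zero_of_not_dvd (by norm_num)]
  rw [this]
  norm_num

lemma card_mul_index' (H : Subgroup G) : Nat.card H * H.index = 459648 := by
  rw [H.card_mul_index, hG]

lemma P_le_centralizer [Fact (Nat.Prime 19)] :
    (P : Subgroup G) ≤ centralizer ((P : Subgroup G) : Set G) := by
  haveI : IsCyclic (P : Subgroup G) := isCyclic_of_prime_card (card_P hG P)
  haveI : IsMulCommutative (P : Subgroup G) := IsCyclic.isMulCommutative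
  exact (P : Subgroup G).le_centralizer

/-- `|N(P)/C(P)|` divides 18 and is not one. -/
lemma relIndex_facts [Fact (Nat.Prime 19)] :
    (centralizer ((P : Subgroup G) : Set G)).relIndex (normalizer ((P : Subgroup G) : Set G)) ∣ 18 ∧
    (centralizer ((P : Subgroup G) : Set G)).relIndex (normalizer ((P : Subgroup G) : Set G)) ≠ 1 := by
  haveI hcyc : IsCyclic (P : Subgroup G) := isCyclic_of_prime_card (card_P hG P)
  constructor
  · have key := card_dvd_of_injective _
      (QuotientGroup.kerLift_injective (P : Subgroup G).normalizerMonoidHom)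
    rw [normalizerMonoidHom_ker, ← index, ← relIndex, IsCyclic.card_mulAut, card_P hG P,
      Nat.totient_prime Fact.out] at key
    exact key
  · intro h
    have hle : normalizer ((P : Subgroup G) : Set G) ≤ centralizer ((P : Subgroup G) : Set G) :=
      relIndex_eq_one.1 h
    have hc := MonoidHom.ker_transferSylow_isComplement' P hle
    rcases (MonoidHom.transferSylow P hle).normal_ker.eq_bot_or_eq_top with hk | hk
    · have := hc.card_mul
      rw [hk, Subgroup.card_bot, card_P hG P, hG] at this
      norm_num at this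
    · have := hc.disjoint
      rw [hk, top_disjoint] at this
      have h19 := card_P hG P
      rw [this, Subgroup.card_bot] at h19
      norm_num at h19

lemma seven_dvd_excluded [Fact (Nat.Prime 19)]
    (hN : Nat.card (normalizer ((P : Subgroup G) : Set G)) = 4788) : False := by
  haveI : Fact (Nat.Prime 7) := ⟨by norm_num⟩
  set C := centralizer ((P : Subgroup G) : Set G) with hC
  set N := normalizer ((P : Subgroup G) : Set G) with hN'
  have hCN : C ≤ N := centralizer_le_normalizer _
  obtain ⟨hj, hj1⟩ := relIndex_facts hG P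
  have hmul : C.relIndex N * Nat.card C = 4788 := by
    rw [← hN]
    have := (C.subgroupOf N).index_mul_card
    rwa [Nat.card_congr (subgroupOfEquivOfLe hCN).toEquiv] at this
  have hP := P_le_centralizer hG P
  obtain ⟨Q⟩ : Nonempty (Sylow 7 C) := inferInstance
  have hPN : (P : Subgroup G).subgroupOf C ≤ normalizer ((Q : Subgroup C) : Set C) := by
    intro x hx
    rw [mem_subgroupOf] at hx
    have hc : ∀ q : C, q * x = x * q := fun q => by
      apply Subtype.ext
      exact ((mem_centralizer_iff.1 q.2) x hx).symm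
    rw [Subgroup.mem_normalizer_iff]
    intro q
    rw [← hc q, mul_inv_cancel_right]
  have hQN : (Q : Subgroup C) ≤ normalizer ((Q : Subgroup C) : Set C) := le_normalizer
  have hd1 : 19 ∣ Nat.card (normalizer ((Q : Subgroup C) : Set C)) := by
    have := Subgroup.card_dvd_of_le hPN
    rwa [Nat.card_congr (subgroupOfEquivOfLe hP).toEquiv, card_P hG P] at this
  have hn : Nat.card (Sylow 7 C) = (normalizer ((Q : Subgroup C) : Set C)).index :=
    Q.card_eq_index_normalizer
  have hn1 := card_sylow_modEq_one 7 C
  have hm := (normalizer ((Q : Subgroup C) : Set C)).card_mul_index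
  have hd2 : Nat.card Q ∣ Nat.card (normalizer ((Q : Subgroup C) : Set C)) :=
    Subgroup.card_dvd_of_le hQN
  have hQ7 : 7 ∣ Nat.card Q := by
    apply Q.dvd_card_of_dvd_card
    have h' : C.relIndex N ≤ 18 := Nat.le_of_dvd (by norm_num) hj
    interval_cases hh : C.relIndex N <;> omega
  have h133 : 133 ∣ Nat.card (normalizer ((Q : Subgroup C) : Set C)) :=
    Nat.Coprime.mul_dvd_of_dvd_of_dvd (by norm_num : Nat.Coprime 19 7) hd1 (hQ7.trans hd2)
  have hQ1 : Nat.card (Sylow 7 C) = 1 := by
    rw [← hn] at hm
    obtain ⟨d, hd⟩ := h133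
    rw [hd] at hm
    have h36 : C.relIndex N * (d * Nat.card (Sylow 7 C)) = 36 := by
      nlinarith [hmul, hm]
    have hle : Nat.card (Sylow 7 C) ∣ 36 :=
      ⟨C.relIndex N * d, by rw [← h36]; ring⟩
    have hne : Nat.card (Sylow 7 C) ≠ 36 := by
      intro h
      rw [h] at h36
      have : C.relIndex N * d = 1 := by nlinarith
      exact hj1 (Nat.eq_one_of_mul_eq_one_right this)
    have hmod : Nat.card (Sylow 7 C) % 7 = 1 := hn1
    have hle' : Nat.card (Sylow 7 C) ≤ 36 := Nat.le_of_dvd (by norm_num) hle
    interval_cases hh : Nat.card (Sylow 7 C) <;> omega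
  haveI : Subsingleton (Sylow 7 C) := (Nat.card_eq_one_iff_unique.1 hQ1).1
  haveI : (Q : Subgroup C).Normal := Q.normal_of_subsingleton
  haveI : (Q : Subgroup C).Characteristic := Q.characteristic_of_normal ‹_›
  set R : Subgroup G := (Q : Subgroup C).map C.subtype with hR
  have hNR : N ≤ normalizer (R : Set G) := by
    intro n hn
    have hCn : ∀ c : G, c ∈ C ↔ n * c * n⁻¹ ∈ C := by
      intro c
      simp only [hC, mem_centralizer_iff]
      constructor
      · intro h p hp
        have hp' : n⁻¹ * p * n ∈ (P : Subgroup G) := by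
          have := (Subgroup.mem_normalizer_iff.1 (N.inv_mem hn) p).1 hp
          simpa using this
        have := h _ hp'
        calc p * (n * c * n⁻¹) = n * ((n⁻¹ * p * n) * c) * n⁻¹ := by group
          _ = n * (c * (n⁻¹ * p * n)) * n⁻¹ := by rw [this]
          _ = n * c * n⁻¹ * p := by group
      · intro h p hp
        have hp' : n * p * n⁻¹ ∈ (P : Subgroup G) := (Subgroup.mem_normalizer_iff.1 hn p).1 hp
        have := h _ hp'
        calc p * c = n⁻¹ * ((n * p * n⁻¹) * (n * c * n⁻¹)) * n := by group
          _ = n⁻¹ * ((n * c * n⁻¹) * (n * p * n⁻¹)) * n := by rw [this]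
          _ = c * p := by group
    let φ : C ≃* C :=
      { toFun := fun c => ⟨n * c * n⁻¹, (hCn c).1 c.2⟩
        invFun := fun c => ⟨n⁻¹ * c * n, by
          rw [hCn]; simpa [mul_assoc] using c.2⟩
        left_inv := fun c => Subtype.ext (by simp [mul_assoc])
        right_inv := fun c => Subtype.ext (by simp [mul_assoc])
        map_mul' := fun a b => Subtype.ext (by simp [mul_assoc]) }
    have hfix : (Q : Subgroup C).comap φ.toMonoidHom = Q := (inferInstance : (Q : Subgroup C).Characteristic).fixed φ
    rw [Subgroup.mem_normalizer_iff]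
    intro r
    constructor
    · rintro ⟨c, hc, rfl⟩
      refine ⟨φ c, ?_, rfl⟩
      have : c ∈ (Q : Subgroup C).comap φ.toMonoidHom := by rw [hfix]; exact hc
      exact this
    · rintro ⟨c, hc, hcr⟩
      refine ⟨φ.symm c, ?_, ?_⟩
      · have : φ.symm c ∈ (Q : Subgroup C).comap φ.toMonoidHom := by
          simp only [mem_comap, MulEquiv.coe_toMonoidHom, MulEquiv.apply_symm_apply]; exact hc
        rwa [hfix] at this
      · show n⁻¹ * (c : G) * n = r
        have : (c : G) = n * r * n⁻¹ := hcr
        rw [this]; group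
  have hRcard : Nat.card R = Nat.card Q := card_map_of_injective C.subtype_injective
  have hRbot : R ≠ ⊥ := by
    intro h
    rw [h, Subgroup.card_bot] at hRcard
    rw [← hRcard] at hQ7
    norm_num at hQ7
  have hR7 : Nat.card R = 7 := by
    have h49 : Nat.card R ∣ 459648 := hG ▸ R.card_subgroup_dvd_card
    rw [hRcard] at h49 ⊢
    obtain ⟨k, hk⟩ := Q.2.exists_card_eq
    rw [hk] at h49 hQ7 ⊢
    match k with
    | 0 => norm_num at hQ7
    | 1 => norm_num
    | k + 2 =>
      have : 7 ^ 2 ∣ 459648 := (pow_dvd_pow 7 (by omega)).trans h49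
      norm_num at this
  have hne : normalizer (R : Set G) ≠ ⊤ := by
    intro h
    rcases (normalizer_eq_top_iff.1 h).eq_bot_or_eq_top with h' | h'
    · exact hRbot h'
    · rw [h', card_top, hG] at hR7
      norm_num at hR7
  have hbig := index_ge hG hne
  let S : Sylow 7 G := Sylow.ofCard R (by
    rw [hR7, hG]
    have : (459648).factorization 7 = 1 := by
      rw [Nat.factorization_def _ (Fact.out), show (459648 : ℕ) = 7 * 65664 from rfl,
        padicValNat.mul (by norm_num) (by norm_num), padicValNat.self (by norm_num),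
        padicValNat.eq_zero_of_not_dvd (by norm_num)]
    rw [this]; norm_num)
  have hS : Nat.card (Sylow 7 G) = (normalizer (R : Set G)).index := S.card_eq_index_normalizer
  have hmod : (normalizer (R : Set G)).index % 7 = 1 := by
    rw [← hS]; exact card_sylow_modEq_one 7 G
  have hdvd : (normalizer (R : Set G)).index ∣ 96 := by
    have h1 := Subgroup.index_dvd_of_le hNR
    have h2 := card_mul_index' hG N
    rw [hN] at h2
    have h3 : N.index = 96 := by omega
    rwa [h3] at h1
  have hle := Nat.le_of_dvd (by norm_num) hdvd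
  interval_cases hh : (normalizer (R : Set G)).index <;> omega

lemma card_N [Fact (Nat.Prime 19)] :
    Nat.card (normalizer ((P : Subgroup G) : Set G)) = 456 := by
  set N := normalizer ((P : Subgroup G) : Set G) with hN
  have hP := card_P hG P
  have hne : N ≠ ⊤ := by
    intro h
    rcases (normalizer_eq_top_iff.1 h).eq_bot_or_eq_top with h' | h'
    · rw [h', Subgroup.card_bot] at hP; norm_num at hP
    · rw [h', card_top, hG] at hP; norm_num at hP
  have h19 := index_ge hG hne
  have hmul := card_mul_index' hG N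
  have hmod : N.index % 19 = 1 := by
    have : Nat.card (Sylow 19 G) = N.index := P.card_eq_index_normalizer
    rw [← this]
    exact card_sylow_modEq_one 19 G
  obtain ⟨d, hd⟩ : 19 ∣ Nat.card N := hP ▸ Subgroup.card_dvd_of_le le_normalizer
  rw [hd] at hmul
  have hdn : d * N.index = 24192 := by nlinarith
  have hd' : d < 1274 := by nlinarith
  have key : ∀ d : Fin 1274, d.val ∣ 24192 → 24192 / d.val % 19 = 1 → 19 ≤ 24192 / d.val →
      d.val = 24 ∨ d.val = 252 := by decide +kernel
  have hd0 : 0 < d := by
    rcases Nat.eq_zero_or_pos d with h | h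
    · subst h; simp at hdn
    · exact h
  have hdiv : 24192 / d = N.index := by rw [← hdn, Nat.mul_div_cancel_left _ hd0]
  rcases key ⟨d, hd'⟩ ⟨_, hdn.symm⟩ (by simpa [hdiv] using hmod) (by simpa [hdiv] using h19) with h | h
  · simp at h; rw [hd, h]
  · simp at h
    exact (seven_dvd_excluded hG P (by rw [hd, h])).elim

lemma card_C [Fact (Nat.Prime 19)] :
    ∃ k, Nat.card (centralizer ((P : Subgroup G) : Set G)) = 19 * k ∧ (k = 4 ∨ k = 8 ∨ k = 12) := by
  set C := centralizer ((P : Subgroup G) : Set G) with hC
  set N := normalizer ((P : Subgroup G) : Set G) with hN'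
  have hCN : C ≤ N := centralizer_le_normalizer _
  obtain ⟨hj, hj1⟩ := relIndex_facts hG P
  have hmul : C.relIndex N * Nat.card C = 456 := by
    rw [← card_N hG P]
    have := (C.subgroupOf N).index_mul_card
    rwa [Nat.card_congr (subgroupOfEquivOfLe hCN).toEquiv] at this
  obtain ⟨k, hk⟩ : 19 ∣ Nat.card C := card_P hG P ▸ Subgroup.card_dvd_of_le (P_le_centralizer hG P)
  refine ⟨k, hk, ?_⟩
  rw [hk] at hmul
  have hle : C.relIndex N ≤ 18 := Nat.le_of_dvd (by norm_num) hj
  interval_cases hh : C.relIndex N <;> omega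

/-- At most `k` solutions of `x ^ 2 = 1` in `C(P)`. -/
lemma sq_one_count [Fact (Nat.Prime 19)] {k : ℕ}
    (hk : Nat.card (centralizer ((P : Subgroup G) : Set G)) = 19 * k) :
    {x : G | x ∈ centralizer ((P : Subgroup G) : Set G) ∧ x * x = 1}.ncard ≤ k := by
  set C := centralizer ((P : Subgroup G) : Set G) with hC
  have hP := P_le_centralizer hG P
  set P' := (P : Subgroup G).subgroupOf C with hP'
  have hcard : Nat.card P' = 19 := by
    rw [Nat.card_congr (subgroupOfEquivOfLe hP).toEquiv, card_P hG P]
  have hidx : P'.index = k := by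
    have := P'.card_mul_index
    rw [hcard, hk] at this
    omega
  rw [← Nat.card_coe_set_eq]
  have hinj : Function.Injective
      (fun x : {x : G | x ∈ C ∧ x * x = 1} => (QuotientGroup.mk ⟨x.1, x.2.1⟩ : C ⧸ P')) := by
    intro x y hxy
    rw [QuotientGroup.eq, hP', mem_subgroupOf] at hxy
    simp only [Subgroup.coe_mul, InvMemClass.coe_inv] at hxy
    set p := x.1⁻¹ * y.1 with hp
    have hcomm : x.1 * p = p * x.1 := ((mem_centralizer_iff.1 x.2.1) p hxy).symm
    have hy : y.1 = x.1 * p := by rw [hp]; group
    have h2 : p * p = 1 := by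
      have := y.2.2
      rw [hy] at this
      calc p * p = (x.1 * x.1) * (p * p) := by rw [x.2.2, one_mul]
        _ = x.1 * (x.1 * p) * p := by group
        _ = x.1 * (p * x.1) * p := by rw [hcomm]
        _ = x.1 * p * (x.1 * p) := by group
        _ = 1 := this
    have ho : orderOf p ∣ 2 := orderOf_dvd_of_pow_eq_one (by rw [pow_two, h2])
    have ho' : orderOf p ∣ 19 := by
      rw [← card_P hG P, ← Subgroup.orderOf_mk (H := (P : Subgroup G)) p hxy]
      exact orderOf_dvd_natCard _
    have : orderOf p = 1 := Nat.eq_one_of_dvd_coprimes (by norm_num) ho ho'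
    rw [orderOf_eq_one_iff] at this
    apply Subtype.ext
    rw [hy, this, mul_one]
  calc Nat.card {x : G | x ∈ C ∧ x * x = 1} ≤ Nat.card (C ⧸ P') :=
        Nat.card_le_card_of_injective _ hinj
    _ = k := hidx

lemma four_dvd_centralizer [Fact (Nat.Prime 19)] {t : G}
    (ht : t ∈ centralizer ((P : Subgroup G) : Set G)) (ht2 : orderOf t = 2) :
    4 ∣ Nat.card (centralizer ({t} : Set G) ⊓ centralizer ((P : Subgroup G) : Set G) : Subgroup G) := by
  haveI : Fact (Nat.Prime 2) := ⟨Nat.prime_two⟩
  set C := centralizer ((P : Subgroup G) : Set G) with hC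
  let t' : C := ⟨t, ht⟩
  have ho : orderOf t' = 2 := by rw [Subgroup.orderOf_mk, ht2]
  have hp : IsPGroup 2 (zpowers t') := IsPGroup.of_card (n := 1) (by
    rw [Nat.card_zpowers, ho, pow_one])
  obtain ⟨T, hT⟩ := hp.exists_le_sylow
  have htT : t' ∈ (T : Subgroup C) := hT (mem_zpowers t')
  obtain ⟨k, hk, hk'⟩ := card_C hG P
  have hT4 : 4 ∣ Nat.card T := by
    have := T.pow_dvd_card_of_pow_dvd_card (n := 2) (by rw [hk]; rcases hk' with h | h | h <;> subst h <;> norm_num)
    simpa using this
  set Z := centralizer ({(⟨t', htT⟩ : T)} : Set T) with hZ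
  have hZ4 : 4 ∣ Nat.card Z := by
    obtain ⟨n, hn⟩ := (T.2.to_subgroup Z).exists_card_eq
    have hge : 3 ≤ Nat.card Z := by
      haveI : Nontrivial T := by
        rw [← Finite.one_lt_card_iff_nontrivial]
        have := Nat.le_of_dvd Nat.card_pos hT4
        omega
      obtain ⟨z, hz, hz1⟩ : ∃ z : T, z ∈ center T ∧ z ≠ 1 := by
        haveI := T.2.center_nontrivial
        obtain ⟨z, hz⟩ := exists_ne (1 : center T)
        exact ⟨z, z.2, fun h => hz (Subtype.ext h)⟩
      by_cases hzt : z = ⟨t', htT⟩
      · have : Z = ⊤ := by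
          rw [eq_top_iff]
          intro g _
          rw [hZ, mem_centralizer_singleton_iff, ← hzt]
          exact (mem_center_iff.1 hz g)
        rw [this, card_top]
        have := Nat.le_of_dvd Nat.card_pos hT4
        omega
      · have hne : (⟨t', htT⟩ : T) ≠ 1 := by
          intro h
          have : t' = 1 := congrArg Subtype.val h
          rw [this, orderOf_one] at ho
          norm_num at ho
        have hsub : ({1, ⟨t', htT⟩, z} : Set T) ⊆ (Z : Set T) := by
          intro g hg
          rw [SetLike.mem_coe, hZ, mem_centralizer_singleton_iff]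
          rcases hg with rfl | rfl | rfl
          · simp
          · rfl
          · exact ((mem_center_iff.1 hz) _).symm
        have := Set.ncard_le_ncard hsub
        rw [Set.ncard_insert_of_notMem (by simp [hne.symm, hz1.symm]), Set.ncard_pair (Ne.symm hzt)] at this
        exact this.trans (le_of_eq (Nat.card_coe_set_eq (Z : Set T)).symm)
    rw [hn] at hge ⊢
    match n with
    | 0 => norm_num at hge
    | 1 => norm_num at hge
    | n + 2 => exact ⟨2 ^ n, by ring⟩
  refine hZ4.trans ?_
  let f : T →* G := C.subtype.comp (T : Subgroup C).subtype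
  have hf : Function.Injective f := C.subtype_injective.comp (T : Subgroup C).subtype_injective
  rw [Nat.card_congr (Z.equivMapOfInjective f hf).toEquiv]
  apply Subgroup.card_dvd_of_le
  rintro _ ⟨g, hg, rfl⟩
  refine ⟨?_, g.1.2⟩
  refine mem_centralizer_singleton_iff.2 ?_
  exact congrArg (fun a : T => (a.1 : G)) (mem_centralizer_singleton_iff.1 hg)

/-- Either `C(t) ≤ N(P)`, or `C(t)` has 96 Sylow 19-subgroups. -/
lemma centralizer_cases [Fact (Nat.Prime 19)] {t : G}
    (ht : t ∈ centralizer ((P : Subgroup G) : Set G)) (ht2 : orderOf t = 2) :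
    centralizer ({t} : Set G) ≤ normalizer ((P : Subgroup G) : Set G) ∨
    (∀ g : G, (P : Subgroup G).map (MulAut.conj g).toMonoidHom ≤ centralizer ({t} : Set G) →
      ∃ h ∈ centralizer ({t} : Set G), h * g ∈ normalizer ((P : Subgroup G) : Set G)) ∧
    ((Nat.card (centralizer ({t} : Set G) ⊓ normalizer ((P : Subgroup G) : Set G) : Subgroup G) = 76 ∧
        (centralizer ({t} : Set G)).index = 63) ∨
      (Nat.card (centralizer ({t} : Set G) ⊓ normalizer ((P : Subgroup G) : Set G) : Subgroup G) = 228 ∧
        (centralizer ({t} : Set G)).index = 21)) := by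
  set H := centralizer ({t} : Set G) with hH
  set N := normalizer ((P : Subgroup G) : Set G) with hN
  have htne : t ≠ 1 := by intro h; rw [h, orderOf_one] at ht2; norm_num at ht2
  have hPH : (P : Subgroup G) ≤ H := by
    intro p hp
    rw [hH, mem_centralizer_singleton_iff]
    exact (mem_centralizer_iff.1 ht) p hp
  have hidx := index_ge hG (centralizer_ne_top hG htne)
  rw [← hH] at hidx
  have hn : Nat.card (Sylow 19 H) = (N.subgroupOf H).index := by
    rw [(P.subtype hPH).card_eq_index_normalizer, hN, subgroupOf_normalizer_eq hPH]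
    rfl
  have hmul : Nat.card (H ⊓ N : Subgroup G) * (N.subgroupOf H).index = Nat.card H := by
    rw [← (N.subgroupOf H).card_mul_index, inf_comm, ← Nat.card_congr
      (subgroupOfEquivOfLe (inf_le_right : N ⊓ H ≤ H)).toEquiv, inf_subgroupOf_right]
  have hmod : (N.subgroupOf H).index % 19 = 1 := by rw [← hn]; exact card_sylow_modEq_one 19 H
  have hHG := card_mul_index' hG H
  rw [← hmul] at hHG
  have hCle : centralizer ((P : Subgroup G) : Set G) ≤ N := centralizer_le_normalizer _
  obtain ⟨m, hm⟩ : 19 ∣ Nat.card (H ⊓ N : Subgroup G) :=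
    card_P hG P ▸ Subgroup.card_dvd_of_le (le_inf hPH le_normalizer)
  have h4 : 4 ∣ Nat.card (H ⊓ N : Subgroup G) :=
    (four_dvd_centralizer hG P ht ht2).trans (Subgroup.card_dvd_of_le (inf_le_inf_left _ hCle))
  have hm24 : m ∣ 24 := by
    have := Subgroup.card_dvd_of_le (inf_le_right : H ⊓ N ≤ N)
    rw [hm, card_N hG P, show (456 : ℕ) = 19 * 24 from rfl] at this
    exact (Nat.mul_dvd_mul_iff_left (by norm_num)).1 this
  rw [hm] at hHG h4
  have h4m : 4 ∣ m := (Nat.Coprime.dvd_of_dvd_mul_left (by norm_num) h4)
  set n := (N.subgroupOf H).index with hn'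
  have hmn : m * n * H.index = 24192 := by nlinarith
  have hmle : m ≤ 24 := Nat.le_of_dvd (by norm_num) hm24
  have hn320 : n < 320 := by
    by_contra hc
    have : 4 ≤ m := Nat.le_of_dvd (by
      rcases Nat.eq_zero_or_pos m with h | h
      · subst h; simp at hmn
      · exact h) h4m
    have : 4 * 320 * 19 ≤ m * n * H.index :=
      Nat.mul_le_mul (Nat.mul_le_mul this (by omega)) hidx
    omega
  have key : ∀ n : Fin 320, n.val ∣ 24192 → n.val % 19 = 1 → n.val = 1 ∨ n.val = 96 := by
    decide +kernel
  rcases key ⟨n, hn320⟩ ⟨m * H.index, by rw [← hmn]; ring⟩ hmod with h | h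
  · left
    simp at h
    exact subgroupOf_eq_top.1 (index_eq_one.1 h)
  · right
    simp at h
    refine ⟨fun g hg => ?_, ?_⟩
    · haveI := Fact.mk (by norm_num : Nat.Prime 19)
      let P2 : Sylow 19 H := ((g • P : Sylow 19 G)).subtype (by
        rw [Sylow.coe_subgroup_smul]; exact hg)
      obtain ⟨h', hh'⟩ := MulAction.exists_smul_eq H P2 (P.subtype hPH)
      refine ⟨h', h'.2, ?_⟩
      have e : (h' : G) • (g • P) = P := Sylow.subtype_injective
        (hP := by rw [Sylow.coe_subgroup_smul, Sylow.coe_subgroup_smul, pointwise_smul_def]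
                  rintro _ ⟨x, hx, rfl⟩
                  exact H.mul_mem (H.mul_mem h'.2 (hg (by rwa [pointwise_smul_def] at hx))) (H.inv_mem h'.2))
        (hQ := hPH) (by rw [← hh', Sylow.smul_subtype]; rfl)
      rw [← mul_smul] at e
      exact Sylow.smul_eq_iff_mem_normalizer.1 e
    · rw [h] at hmn
      rw [hm]
      interval_cases m <;> omega

end WithP

end Cfsg.Lib.Small459648
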