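import Mathlib
import Cfsg.Agent.Lib.Small.S459648
import Cfsg.Agent.Lib.Transfer.PGroupNormal

set_option autoImplicit false

/-! No simple group of order 459648: centralizers of involutions centralising a Sylow 19-subgroup. -/

namespace Cfsg.Lib.Small459648

open Subgroup MulAction

variable {G : Type*} [Group G] [Finite G] [IsSimpleGroup G]

/-- The conjugate of `t` attached to a coset of its centralizer. -/
def conjAt (t : G) (x : G ⧸ centralizer ({t} : Set G)) : G :=
  Quotient.liftOn' x (fun g => g * t * g⁻¹) (by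
    intro a b hab
    rw [QuotientGroup.leftRel_apply, mem_centralizer_singleton_iff] at hab
    show a * t * a⁻¹ = b * t * b⁻¹
    calc a * t * a⁻¹ = a * (t * (a⁻¹ * b)) * b⁻¹ := by group
      _ = a * ((a⁻¹ * b) * t) * b⁻¹ := by rw [hab]
      _ = b * t * b⁻¹ := by group)

omit [Finite G] [IsSimpleGroup G] in
lemma conjAt_mk (t g : G) : conjAt t (QuotientGroup.mk g) = g * t * g⁻¹ := rfl

omit [Finite G] [IsSimpleGroup G] in
lemma conjAt_smul (t g : G) (x : G ⧸ centralizer ({t} : Set G)) :
    conjAt t (g • x) = g * conjAt t x * g⁻¹ := by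
  induction x using QuotientGroup.induction_on with
  | H a => rw [MulAction.Quotient.smul_mk, conjAt_mk, conjAt_mk, smul_eq_mul]; group

omit [Finite G] [IsSimpleGroup G] in
lemma conjAt_injective (t : G) : Function.Injective (conjAt t) := by
  intro x y h
  induction x using QuotientGroup.induction_on with
  | H a =>
    induction y using QuotientGroup.induction_on with
    | H b =>
      rw [conjAt_mk, conjAt_mk] at h
      rw [QuotientGroup.eq, mem_centralizer_singleton_iff]
      calc a⁻¹ * b * t = a⁻¹ * (b * t * b⁻¹) * b := by group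
        _ = a⁻¹ * (a * t * a⁻¹) * b := by rw [h]
        _ = t * (a⁻¹ * b) := by group

omit [Finite G] [IsSimpleGroup G] in
lemma smul_eq_iff (t g : G) (x : G ⧸ centralizer ({t} : Set G)) :
    g • x = x ↔ g * conjAt t x = conjAt t x * g := by
  rw [← (conjAt_injective t).eq_iff, conjAt_smul, mul_inv_eq_iff_eq_mul]

section WithP

variable (hG : Nat.card G = 459648) (P : Sylow 19 G) [Fact (Nat.Prime 19)]
include hG

lemma fixed_iff {t : G} (x : G ⧸ centralizer ({t} : Set G)) :
    x ∈ fixedPoints (P : Subgroup G) (G ⧸ centralizer ({t} : Set G)) ↔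
      conjAt t x ∈ centralizer ((P : Subgroup G) : Set G) := by
  rw [mem_fixedPoints, mem_centralizer_iff]
  constructor
  · intro h p hp
    exact (smul_eq_iff t p x).1 (h ⟨p, hp⟩)
  · intro h p
    exact (smul_eq_iff t p.1 x).2 (h p.1 p.2)

lemma orbit_P_card {α : Type*} [MulAction G α] {y : α}
    (hy : y ∉ fixedPoints (P : Subgroup G) α) : (orbit (P : Subgroup G) y).ncard = 19 := by
  rw [← index_stabilizer]
  have h1 := (stabilizer (P : Subgroup G) y).index_dvd_card
  rw [card_P hG P] at h1
  rcases (Nat.dvd_prime Fact.out).1 h1 with h | h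
  · exfalso
    apply hy
    rw [mem_fixedPoints]
    intro p
    have : p ∈ stabilizer (P : Subgroup G) y := by rw [index_eq_one.1 h]; exact mem_top p
    exact this
  · exact h

lemma smul_fixed {α : Type*} [MulAction G α] {g : G} (hg : g ∈ normalizer ((P : Subgroup G) : Set G))
    (x : α) (hx : x ∈ fixedPoints (P : Subgroup G) α) : g • x ∈ fixedPoints (P : Subgroup G) α := by
  rw [mem_fixedPoints] at hx ⊢
  intro p
  have hp : g⁻¹ * p * g ∈ (P : Subgroup G) := by
    have := (Subgroup.mem_normalizer_iff.1 (inv_mem hg) p).1 p.2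
    simpa using this
  have := hx ⟨_, hp⟩
  show (p : G) • g • x = g • x
  calc (p : G) • g • x = g • ((g⁻¹ * p * g) • x) := by simp [mul_smul]
    _ = g • x := by
      have h2 : (g⁻¹ * p * g) • x = x := this
      rw [h2]

lemma smul_eq_self_of_same_orbit {α : Type*} [MulAction G α] {y : α} {s : G}
    (hs : s ∈ centralizer ((P : Subgroup G) : Set G)) {n : ℕ} (hn : s ^ n • y = y)
    (hn19 : ¬ 19 ∣ n) (hy : y ∉ fixedPoints (P : Subgroup G) α)
    (hsy : s • y ∈ orbit (P : Subgroup G) y) : s • y = y := by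
  obtain ⟨p, hp⟩ := hsy
  have hp' : (p : G) • y = s • y := hp
  have hcomm : Commute (p : G) s := (mem_centralizer_iff.1 hs) p p.2
  have hpow : ∀ m : ℕ, s ^ m • y = (p : G) ^ m • y := by
    intro m
    induction m with
    | zero => simp
    | succ m ih =>
      rw [pow_succ, mul_smul, ← hp', ← mul_smul, ← (hcomm.pow_right m).eq, mul_smul, ih,
        ← mul_smul, ← pow_succ']
  have h1 : (p ^ n : (P : Subgroup G)) ∈ stabilizer (P : Subgroup G) y := by
    rw [mem_stabilizer_iff]
    show ((p ^ n : (P : Subgroup G)) : G) • y = y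
    rw [SubgroupClass.coe_pow, ← hpow, hn]
  have hst : stabilizer (P : Subgroup G) y = ⊥ := by
    have h19 := orbit_P_card hG P hy
    rw [← index_stabilizer] at h19
    have := (stabilizer (P : Subgroup G) y).card_mul_index
    rw [h19, card_P hG P] at this
    exact card_eq_one.1 (by omega)
  rw [hst, mem_bot] at h1
  have h2 : orderOf p ∣ n := orderOf_dvd_of_pow_eq_one h1
  have h3 : orderOf p ∣ 19 := (orderOf_dvd_natCard p).trans (dvd_of_eq (card_P hG P))
  rcases (Nat.dvd_prime Fact.out).1 h3 with h | h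
  · rw [orderOf_eq_one_iff] at h
    rw [← hp', h]; simp
  · exact absurd (h ▸ h2) hn19

lemma not_index21 {t : G} (ht : t ∈ centralizer ((P : Subgroup G) : Set G)) (ht2 : orderOf t = 2)
    (h21 : (centralizer ({t} : Set G)).index = 21) : False := by
  classical
  set H := centralizer ({t} : Set G) with hH
  have htne : t ≠ 1 := by intro h; rw [h, orderOf_one] at ht2; norm_num at ht2
  have hHtop : H ≠ ⊤ := centralizer_ne_top hG htne
  have hX : Nat.card (G ⧸ H) = 21 := h21
  set F := fixedPoints (P : Subgroup G) (G ⧸ H) with hF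
  have hmod : 21 % 19 = F.ncard % 19 := by
    have := P.2.card_modEq_card_fixedPoints (G ⧸ H)
    rw [hX, Nat.card_coe_set_eq] at this
    exact this
  have hle : F.ncard ≤ 21 := by rw [← hX]; exact Set.ncard_le_card F
  have htN := centralizer_le_normalizer _ ht
  have hne21 : F.ncard ≠ 21 := by
    intro h
    have hall : F = Set.univ := Set.eq_of_subset_of_ncard_le (Set.subset_univ _)
      (by rw [Set.ncard_univ, hX, h])
    have h19 := card_P hG P
    have : (P : Subgroup G) = ⊥ := by
      rw [eq_bot_iff]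
      intro p hp
      exact eq_one_of_forall_smul hHtop p fun x => by
        have hx : x ∈ F := hall ▸ Set.mem_univ x
        exact mem_fixedPoints.1 hx ⟨p, hp⟩
    rw [this, Subgroup.card_bot] at h19
    norm_num at h19
  have hF2 : F.ncard = 2 := by omega
  apply htne
  apply eq_one_of_forall_smul hHtop
  intro x
  by_cases hx : x ∈ F
  · have hbase : t • (QuotientGroup.mk 1 : G ⧸ H) = QuotientGroup.mk 1 := by
      rw [MulAction.Quotient.smul_mk, smul_eq_mul, mul_one, QuotientGroup.eq, mul_one]
      exact inv_mem (by rw [hH, mem_centralizer_singleton_iff])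
    have hb : (QuotientGroup.mk 1 : G ⧸ H) ∈ F := by
      rw [hF, fixed_iff hG P, conjAt_mk, one_mul, inv_one, mul_one]
      exact ht
    by_cases hxb : x = QuotientGroup.mk 1
    · rw [hxb, hbase]
    · have hpair : ({x, QuotientGroup.mk 1} : Set (G ⧸ H)) = F :=
        Set.eq_of_subset_of_ncard_le (by intro z hz; rcases hz with rfl | rfl <;> assumption)
          (by rw [Set.ncard_pair hxb, hF2])
      have htx : t • x ∈ F := smul_fixed hG P htN x hx
      rw [← hpair] at htx
      rcases htx with h | h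
      · exact h
      · rw [← hbase] at h
        exact absurd (smul_left_cancel t h) hxb
  · have htx : t • x ∉ F := fun h => hx (by
      have := smul_fixed hG P (inv_mem htN) _ h
      rwa [inv_smul_smul] at this)
    have horb : orbit (P : Subgroup G) x = Fᶜ := by
      refine Set.eq_of_subset_of_ncard_le ?_ ?_
      · rintro _ ⟨p, rfl⟩ hp
        apply hx
        have := smul_fixed hG P (inv_mem (le_normalizer p.2)) _ hp
        show x ∈ F
        have e : (p : G)⁻¹ • (p • x) = x := inv_smul_smul (p : G) x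
        rwa [e] at this
      · rw [Set.ncard_compl, hX, hF2]
        exact le_of_eq (orbit_P_card hG P hx).symm
    refine smul_eq_self_of_same_orbit hG P ht (n := 2) ?_ (by norm_num) hx (horb ▸ htx)
    rw [← ht2, pow_orderOf_eq_one, one_smul]

/-- The six conjugates of a non-local involution. -/
lemma six {t : G} (ht : t ∈ centralizer ((P : Subgroup G) : Set G)) (ht2 : orderOf t = 2)
    (hbig : ¬ centralizer ({t} : Set G) ≤ normalizer ((P : Subgroup G) : Set G)) :
    Nat.card (centralizer ({t} : Set G) ⊓ normalizer ((P : Subgroup G) : Set G) : Subgroup G) = 76 ∧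
    (centralizer ({t} : Set G)).index = 63 ∧
    fixedPoints (P : Subgroup G) (G ⧸ centralizer ({t} : Set G)) =
      orbit (normalizer ((P : Subgroup G) : Set G))
        (QuotientGroup.mk 1 : G ⧸ centralizer ({t} : Set G)) ∧
    (fixedPoints (P : Subgroup G) (G ⧸ centralizer ({t} : Set G))).ncard = 6 := by
  rcases centralizer_cases hG P ht ht2 with h | ⟨hconj, h⟩
  · exact absurd h hbig
  rcases h with ⟨h76, h63⟩ | ⟨-, h21⟩
  swap
  · exact (not_index21 hG P ht ht2 h21).elim
  set H := centralizer ({t} : Set G) with hH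
  set N := normalizer ((P : Subgroup G) : Set G) with hN
  have hb : (QuotientGroup.mk 1 : G ⧸ H) ∈ fixedPoints (P : Subgroup G) (G ⧸ H) := by
    rw [fixed_iff hG P, conjAt_mk, one_mul, inv_one, mul_one]
    exact ht
  have heq : fixedPoints (P : Subgroup G) (G ⧸ H) = orbit N (QuotientGroup.mk 1 : G ⧸ H) := by
    ext x
    constructor
    · intro hx
      induction x using QuotientGroup.induction_on with
      | H a =>
        rw [fixed_iff hG P, conjAt_mk, mem_centralizer_iff] at hx
        have hle : (P : Subgroup G).map (MulAut.conj a⁻¹).toMonoidHom ≤ H := by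
          rintro _ ⟨p, hp, rfl⟩
          rw [hH, mem_centralizer_singleton_iff]
          have := hx p hp
          show a⁻¹ * p * a⁻¹⁻¹ * t = t * (a⁻¹ * p * a⁻¹⁻¹)
          calc a⁻¹ * p * a⁻¹⁻¹ * t = a⁻¹ * (p * (a * t * a⁻¹)) * a := by group
            _ = a⁻¹ * ((a * t * a⁻¹) * p) * a := by rw [this]
            _ = t * (a⁻¹ * p * a⁻¹⁻¹) := by group
        obtain ⟨h, hh, hn⟩ := hconj a⁻¹ hle
        refine ⟨⟨(h * a⁻¹)⁻¹, inv_mem hn⟩, ?_⟩
        show ((h * a⁻¹)⁻¹ : G) • (QuotientGroup.mk 1 : G ⧸ H) = QuotientGroup.mk a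
        rw [MulAction.Quotient.smul_mk, smul_eq_mul, mul_one, QuotientGroup.eq]
        have e : (h * a⁻¹)⁻¹⁻¹ * a = h := by group
        rw [e]; exact hh
    · rintro ⟨n, rfl⟩
      exact smul_fixed hG P n.2 _ hb
  refine ⟨h76, h63, heq, ?_⟩
  rw [heq, ← index_stabilizer]
  have hstab : Nat.card (stabilizer N (QuotientGroup.mk 1 : G ⧸ H)) = 76 := by
    have : stabilizer N (QuotientGroup.mk 1 : G ⧸ H) = H.subgroupOf N := by
      ext n
      rw [mem_stabilizer_iff, mem_subgroupOf]
      show (n : G) • (QuotientGroup.mk 1 : G ⧸ H) = QuotientGroup.mk 1 ↔ _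
      rw [MulAction.Quotient.smul_mk, smul_eq_mul, mul_one, QuotientGroup.eq, mul_one, inv_mem_iff]
    rw [this, ← inf_subgroupOf_right, Nat.card_congr (subgroupOfEquivOfLe inf_le_right).toEquiv, h76]
  have := (stabilizer N (QuotientGroup.mk 1 : G ⧸ H)).card_mul_index
  rw [hstab, card_N hG P] at this
  omega

/-- The set of conjugates of `t` under `N(P)`. -/
def nClass (t : G) : Set G :=
  {u | ∃ n ∈ normalizer ((P : Subgroup G) : Set G), n * t * n⁻¹ = u}

lemma nClass_eq {t : G} (ht : t ∈ centralizer ((P : Subgroup G) : Set G)) (ht2 : orderOf t = 2)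
    (hbig : ¬ centralizer ({t} : Set G) ≤ normalizer ((P : Subgroup G) : Set G)) :
    nClass P t = conjAt t '' fixedPoints (P : Subgroup G) (G ⧸ centralizer ({t} : Set G)) ∧
    (nClass P t).ncard = 6 := by
  obtain ⟨-, -, heq, h6⟩ := six hG P ht ht2 hbig
  have key : nClass P t = conjAt t '' fixedPoints (P : Subgroup G) (G ⧸ centralizer ({t} : Set G)) := by
    rw [heq]
    ext u
    constructor
    · rintro ⟨n, hn, rfl⟩
      exact ⟨(⟨n, hn⟩ : normalizer ((P : Subgroup G) : Set G)) • QuotientGroup.mk 1,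
        mem_orbit _ _, by
          show conjAt t (n • QuotientGroup.mk 1) = _
          rw [conjAt_smul, conjAt_mk]; group⟩
    · rintro ⟨_, ⟨n, rfl⟩, rfl⟩
      refine ⟨n, n.2, ?_⟩
      show _ = conjAt t ((n : G) • QuotientGroup.mk 1)
      rw [conjAt_smul, conjAt_mk]; group
  exact ⟨key, by rw [key, Set.ncard_image_of_injective _ (conjAt_injective t), h6]⟩

lemma nClass_subset {t : G} (ht : t ∈ centralizer ((P : Subgroup G) : Set G)) (ht2 : orderOf t = 2)
    {u : G} (hu : u ∈ nClass P t) :
    u ∈ centralizer ((P : Subgroup G) : Set G) ∧ u * u = 1 ∧ orderOf u = 2 := by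
  obtain ⟨n, hn, rfl⟩ := hu
  have ho : orderOf (n * t * n⁻¹) = 2 := by
    rw [← ht2]
    exact orderOf_injective (MulAut.conj n).toMonoidHom (MulAut.conj n).injective t
  refine ⟨?_, ?_, ho⟩
  · rw [mem_centralizer_iff]
    intro p hp
    have hp' : n⁻¹ * p * n ∈ (P : Subgroup G) := by
      have := (Subgroup.mem_normalizer_iff.1 (inv_mem hn) p).1 hp
      simpa using this
    have := (mem_centralizer_iff.1 ht) _ hp'
    calc p * (n * t * n⁻¹) = n * ((n⁻¹ * p * n) * t) * n⁻¹ := by group
      _ = n * (t * (n⁻¹ * p * n)) * n⁻¹ := by rw [this]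
      _ = n * t * n⁻¹ * p := by group
  · rw [← pow_two, ← ho, pow_orderOf_eq_one]

omit [Finite G] [IsSimpleGroup G] [Fact (Nat.Prime 19)] hG in
lemma nClass_big {t : G}
    (hbig : ¬ centralizer ({t} : Set G) ≤ normalizer ((P : Subgroup G) : Set G))
    {u : G} (hu : u ∈ nClass P t) :
    ¬ centralizer ({u} : Set G) ≤ normalizer ((P : Subgroup G) : Set G) := by
  obtain ⟨n, hn, rfl⟩ := hu
  intro h
  apply hbig
  intro g hg
  have h1 : n * g * n⁻¹ ∈ centralizer ({n * t * n⁻¹} : Set G) := by
    rw [mem_centralizer_singleton_iff] at hg ⊢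
    calc n * g * n⁻¹ * (n * t * n⁻¹) = n * (g * t) * n⁻¹ := by group
      _ = n * (t * g) * n⁻¹ := by rw [hg]
      _ = n * t * n⁻¹ * (n * g * n⁻¹) := by group
  have h2 := mul_mem (mul_mem (inv_mem hn) (h h1)) hn
  have e : n⁻¹ * (n * g * n⁻¹) * n = g := by group
  rwa [e] at h2

omit [Finite G] [IsSimpleGroup G] [Fact (Nat.Prime 19)] hG in
/-- Groups in which every element squares to one are commutative. -/
lemma comm_of_sq {T : Type*} [Group T] (h : ∀ x : T, x * x = 1) (a b : T) : a * b = b * a := by
  have hi : ∀ x : T, x⁻¹ = x := fun x => inv_eq_of_mul_eq_one_right (h x)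
  calc a * b = (a * b)⁻¹ := (hi _).symm
    _ = b * a := by rw [mul_inv_rev, hi, hi]

lemma k_eight {t : G} (ht : t ∈ centralizer ((P : Subgroup G) : Set G)) (ht2 : orderOf t = 2)
    (hbig : ¬ centralizer ({t} : Set G) ≤ normalizer ((P : Subgroup G) : Set G))
    (hk : Nat.card (centralizer ((P : Subgroup G) : Set G)) = 19 * 8) : False := by
  haveI : Fact (Nat.Prime 2) := ⟨Nat.prime_two⟩
  set C := centralizer ((P : Subgroup G) : Set G) with hC
  obtain ⟨T⟩ : Nonempty (Sylow 2 C) := inferInstance
  have hT : Nat.card T = 8 := by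
    rw [T.card_eq_multiplicity, hk]
    have : (19 * 8).factorization 2 = 3 := by
      rw [Nat.factorization_def _ Nat.prime_two, padicValNat.mul (by norm_num) (by norm_num),
        padicValNat.eq_zero_of_not_dvd (by norm_num), show (8 : ℕ) = 2 ^ 3 from rfl,
        padicValNat.prime_pow]
    rw [this]; norm_num
  have hPC : (P : Subgroup G).subgroupOf C ≤ normalizer ((T : Subgroup C) : Set C) := by
    intro x hx
    rw [mem_subgroupOf] at hx
    have hc : ∀ q : C, q * x = x * q := fun q => by
      apply Subtype.ext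
      exact ((mem_centralizer_iff.1 q.2) x hx).symm
    rw [Subgroup.mem_normalizer_iff]
    intro q
    rw [← hc q, mul_inv_cancel_right]
  have hnorm : (T : Subgroup C).Normal := by
    rw [← normalizer_eq_top_iff, ← Subgroup.card_eq_iff_eq_top, hk]
    apply Nat.dvd_antisymm
    · exact hk ▸ card_subgroup_dvd_card _
    · refine Nat.Coprime.mul_dvd_of_dvd_of_dvd (by norm_num) ?_ ?_
      · have := Subgroup.card_dvd_of_le hPC
        rwa [Nat.card_congr (subgroupOfEquivOfLe (P_le_centralizer hG P)).toEquiv,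
          card_P hG P] at this
      · have := Subgroup.card_dvd_of_le (le_normalizer : (T : Subgroup C) ≤ _)
        rwa [hT] at this
  have hmem : ∀ u : G, ∀ hu : u ∈ C, u * u = 1 → (⟨u, hu⟩ : C) ∈ (T : Subgroup C) := by
    intro u hu hu2
    haveI := hnorm
    rw [← QuotientGroup.eq_one_iff]
    set q : C ⧸ (T : Subgroup C) := QuotientGroup.mk ⟨u, hu⟩ with hq
    have h2 : orderOf q ∣ 2 := orderOf_dvd_of_pow_eq_one (by
      rw [hq, pow_two, ← QuotientGroup.mk_mul]
      rw [show (⟨u, hu⟩ * ⟨u, hu⟩ : C) = 1 from Subtype.ext hu2]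
      rfl)
    have h19 : orderOf q ∣ 19 := (orderOf_dvd_natCard q).trans (dvd_of_eq (by
      have := (T : Subgroup C).card_mul_index
      rw [hT, hk] at this
      show (T : Subgroup C).index = 19
      omega))
    exact orderOf_eq_one_iff.1 (Nat.eq_one_of_dvd_coprimes (by norm_num) h2 h19)
  obtain ⟨heq, h6⟩ := nClass_eq hG P ht ht2 hbig
  haveI : Nontrivial T := Finite.one_lt_card_iff_nontrivial.1 (by omega)
  haveI : Nontrivial (center T) := T.2.center_nontrivial
  obtain ⟨z, hz⟩ : ∃ z : center T, orderOf z = 2 := by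
    have hd : 2 ∣ Nat.card (center T) := by
      obtain ⟨n, hn⟩ := (T.2.to_subgroup (center T)).exists_card_eq
      have h1 : 1 < Nat.card (center T) := Finite.one_lt_card
      rw [hn] at h1 ⊢
      cases n with
      | zero => norm_num at h1
      | succ n => exact ⟨2 ^ n, by ring⟩
    exact exists_prime_orderOf_dvd_card' 2 hd
  set f : T →* G := C.subtype.comp (T : Subgroup C).subtype with hf
  have hfinj : Function.Injective f := C.subtype_injective.comp (T : Subgroup C).subtype_injective
  have hbigcomm : ∀ u ∈ nClass P t, ¬ ∀ g : T, u * f g = f g * u := by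
    intro u hu hc
    obtain ⟨huC, -, hu2⟩ := nClass_subset hG P ht ht2 hu
    obtain ⟨h76, -⟩ := six hG P huC hu2 (nClass_big P hbig hu)
    have h8 : 8 ∣ Nat.card (centralizer ({u} : Set G) ⊓ normalizer ((P : Subgroup G) : Set G) : Subgroup G) := by
      rw [← hT, Nat.card_congr (MonoidHom.ofInjective hfinj).toEquiv]
      apply Subgroup.card_dvd_of_le
      rintro _ ⟨g, rfl⟩
      exact ⟨mem_centralizer_singleton_iff.2 (hc g).symm, centralizer_le_normalizer _ g.1.2⟩
    rw [h76] at h8
    norm_num at h8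
  have hzc : ∀ g : T, f z.1 * f g = f g * f z.1 := fun g => by
    rw [← map_mul, ← map_mul, mem_center_iff.1 z.2 g]
  set A : Set T := {x | f x ∈ nClass P t} with hA
  have hA6 : A.ncard = 6 := by
    rw [← h6]
    refine Set.ncard_congr (fun x _ => f x) (fun x hx => hx) (fun a b _ _ h => hfinj h) ?_
    intro u hu
    obtain ⟨huC, hu1, -⟩ := nClass_subset hG P ht ht2 hu
    refine ⟨⟨⟨u, huC⟩, hmem u huC hu1⟩, ?_, rfl⟩
    exact hu
  have hz1 : z.1 ≠ 1 := by
    intro h
    have : z = 1 := Subtype.ext h
    rw [this, orderOf_one] at hz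
    norm_num at hz
  have hzA : z.1 ∉ A := fun h => hbigcomm _ h hzc
  have h1A : (1 : T) ∉ A := fun h => hbigcomm _ h (fun g => by simp)
  have hall : insert 1 (insert z.1 A) = Set.univ := by
    apply Set.eq_of_subset_of_ncard_le (Set.subset_univ _)
    rw [Set.ncard_univ, hT, Set.ncard_insert_of_notMem (by simp [h1A, hz1.symm]),
      Set.ncard_insert_of_notMem hzA, hA6]
  have hsq : ∀ x : T, x * x = 1 := by
    intro x
    rcases (hall.symm ▸ Set.mem_univ x : x ∈ insert 1 (insert z.1 A)) with h | h | h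
    · rw [h, one_mul]
    · rw [h]
      have : z * z = 1 := by
        have h2 := pow_orderOf_eq_one z
        rwa [hz, pow_two] at h2
      exact congrArg Subtype.val this
    · apply hfinj
      rw [map_mul, map_one]
      exact (nClass_subset hG P ht ht2 h).2.1
  obtain ⟨a, ha⟩ : A.Nonempty := Set.nonempty_of_ncard_ne_zero (by omega)
  exact hbigcomm _ ha fun g => by rw [← map_mul, ← map_mul, comm_of_sq hsq a g]

lemma nFixing {t : G} (ht : t ∈ centralizer ((P : Subgroup G) : Set G)) (ht2 : orderOf t = 2)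
    (hbig : ¬ centralizer ({t} : Set G) ≤ normalizer ((P : Subgroup G) : Set G))
    (hk : Nat.card (centralizer ((P : Subgroup G) : Set G)) = 19 * 12) :
    ∃ v : G, orderOf v = 2 ∧ v ∈ centralizer ((P : Subgroup G) : Set G) ∧
      ∀ x ∉ fixedPoints (P : Subgroup G) (G ⧸ centralizer ({t} : Set G)), v • x = x := by
  classical
  haveI : Fact (Nat.Prime 2) := ⟨Nat.prime_two⟩
  set C := centralizer ((P : Subgroup G) : Set G) with hC
  set H := centralizer ({t} : Set G) with hH
  obtain ⟨-, h63, -, h6⟩ := six hG P ht ht2 hbig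
  set F := fixedPoints (P : Subgroup G) (G ⧸ H) with hF
  have hX : Nat.card (G ⧸ H) = 63 := h63
  have hFc : Fᶜ.ncard = 57 := by rw [Set.ncard_compl, hX, h6]
  have hoc : ∀ z, z ∉ F → (orbit (P : Subgroup G) z).ncard = 19 := fun z hz => orbit_P_card hG P hz
  have hinvF : ∀ g ∈ C, ∀ x ∉ F, g • x ∉ F := fun g hg x hx h => hx (by
    have := smul_fixed hG P (inv_mem (centralizer_le_normalizer _ hg)) _ h
    rwa [inv_smul_smul] at this)
  have hPC : ∀ p : (P : Subgroup G), (p : G) ∈ C := fun p => P_le_centralizer hG P p.2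
  have hPsub : ∀ y ∉ F, orbit (P : Subgroup G) y ⊆ Fᶜ := by
    rintro y hy _ ⟨p, rfl⟩
    exact hinvF p (hPC p) y hy
  have hdvd : ∀ y ∉ F, 19 ∣ (orbit C y).ncard ∧ (orbit C y).ncard ≤ 57 ∧
      (orbit C y).ncard ∣ 228 := by
    intro y hy
    refine ⟨?_, ?_, ?_⟩
    · have hsub : (P : Subgroup G).subgroupOf C ≤ ⊤ := le_top
      rw [← index_stabilizer]
      set S := stabilizer C y with hS
      have hdis : ¬ 19 ∣ Nat.card S := by
        intro h
        obtain ⟨s, hs⟩ := exists_prime_orderOf_dvd_card' 19 h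
        apply hy
        have hsP : ((s : C) : G) ∈ (P : Subgroup G) := by
          have hp : IsPGroup 19 (zpowers ((s : C) : G)) := IsPGroup.of_card (n := 1) (by
            rw [Nat.card_zpowers, Subgroup.orderOf_coe, Subgroup.orderOf_coe, hs, pow_one])
          have hle : zpowers ((s : C) : G) ≤ normalizer ((P : Subgroup G) : Set G) := by
            rw [zpowers_le]; exact centralizer_le_normalizer _ s.1.2
          have := P.is_maximal' (hp.to_sup_of_normal_right' P.2 hle) le_sup_right
          exact this ▸ le_sup_left (a := zpowers ((s : C) : G)) (mem_zpowers _)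
        rw [mem_fixedPoints]
        intro p
        have hgen : zpowers (⟨_, hsP⟩ : (P : Subgroup G)) = ⊤ := by
          rw [← Subgroup.card_eq_iff_eq_top, Nat.card_zpowers, card_P hG P, Subgroup.orderOf_mk,
            Subgroup.orderOf_coe, Subgroup.orderOf_coe, hs]
        have : zpowers (⟨_, hsP⟩ : (P : Subgroup G)) ≤ stabilizer (P : Subgroup G) y := by
          rw [zpowers_le]; exact s.2
        exact (hgen ▸ this) (mem_top p)
      have := S.card_mul_index
      rw [hk] at this
      have hd : 19 ∣ Nat.card S * S.index := ⟨12, this⟩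
      exact ((Nat.Prime.dvd_mul Fact.out).1 hd).resolve_left hdis
    · rw [← hFc]
      refine Set.ncard_le_ncard ?_ (Set.toFinite _)
      rintro _ ⟨g, rfl⟩
      exact hinvF g g.2 y hy
    · rw [← index_stabilizer]
      have := (stabilizer C y).index_dvd_card
      rwa [hk] at this
  obtain ⟨y, hy, hy38⟩ : ∃ y, y ∉ F ∧ (orbit C y).ncard ≠ 38 := by
    obtain ⟨y0, hy0⟩ : Fᶜ.Nonempty := Set.nonempty_of_ncard_ne_zero (by omega)
    by_cases h38 : (orbit C y0).ncard = 38
    · have hsub : orbit C y0 ⊆ Fᶜ := by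
        rintro _ ⟨g, rfl⟩
        exact hinvF g g.2 y0 hy0
      obtain ⟨y, hy⟩ : (Fᶜ \ orbit C y0).Nonempty := Set.nonempty_of_ncard_ne_zero (by
        rw [Set.ncard_sdiff hsub, hFc, h38]; norm_num)
      refine ⟨y, hy.1, fun h => ?_⟩
      have hd : Disjoint (orbit C y) (orbit C y0) := by
        rw [Set.disjoint_left]
        intro z hz hz0
        apply hy.2
        rw [← orbit_eq_iff.2 hz0, orbit_eq_iff.2 hz]
        exact mem_orbit_self y
      have hsub' : orbit C y ∪ orbit C y0 ⊆ Fᶜ := by
        refine Set.union_subset ?_ hsub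
        rintro _ ⟨g, rfl⟩
        exact hinvF g g.2 y hy.1
      have := Set.ncard_le_ncard hsub'
      rw [Set.ncard_union_eq hd, h, h38, hFc] at this
      omega
    · exact ⟨y0, hy0, h38⟩
  set S1 := stabilizer C y with hS1
  have hS1card : Nat.card S1 = 4 ∨ Nat.card S1 = 12 := by
    obtain ⟨hd, hle, hdd⟩ := hdvd y hy
    have := S1.card_mul_index
    rw [index_stabilizer, hk] at this
    obtain ⟨c, hc⟩ := hd
    rw [hc] at this hle hy38
    have hc3 : c ≤ 3 := by omega
    interval_cases c <;> omega
  have hcop : ∀ s ∈ S1, ¬ 19 ∣ orderOf ((s : C) : G) := by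
    intro s hs h
    have h1 : orderOf ((s : C) : G) ∣ Nat.card S1 := by
      have := orderOf_dvd_natCard (⟨s, hs⟩ : S1)
      rwa [Subgroup.orderOf_mk, ← Subgroup.orderOf_coe] at this
    have := h.trans h1
    rcases hS1card with e | e <;> rw [e] at this <;> norm_num at this
  have hfix : ∀ s ∈ S1, ∀ z ∉ F, ((s : C) : G) • z ∈ orbit (P : Subgroup G) z →
      ((s : C) : G) • z = z := fun s hs z hz hsz =>
    smul_eq_self_of_same_orbit hG P s.2 (n := orderOf ((s : C) : G))
      (by rw [pow_orderOf_eq_one, one_smul]) (hcop s hs) hz hsz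
  obtain ⟨y2, hy2⟩ : (Fᶜ \ orbit (P : Subgroup G) y).Nonempty := Set.nonempty_of_ncard_ne_zero (by
    rw [Set.ncard_sdiff (hPsub y hy), hFc, hoc _ hy]; norm_num)
  have hS1y : ∀ s ∈ S1, ∀ z ∈ orbit (P : Subgroup G) y, ((s : C) : G) • z = z := by
    rintro s hs _ ⟨p, rfl⟩
    have hc : (p : G) * ((s : C) : G) = ((s : C) : G) * p := (mem_centralizer_iff.1 s.2) p p.2
    show ((s : C) : G) • (p : G) • y = (p : G) • y
    rw [← mul_smul, ← hc, mul_smul]
    have : ((s : C) : G) • y = y := hs
    rw [this]
  have hsmall : (orbit S1 y2).ncard ≤ 2 := by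
    by_contra hc
    obtain ⟨a, b, c, ha, hb, hc', hab, hac, hbc⟩ := (Set.two_lt_ncard_iff).1 (lt_of_not_ge hc)
    have hsep : ∀ a ∈ orbit S1 y2, ∀ b ∈ orbit S1 y2, a ≠ b →
        Disjoint (orbit (P : Subgroup G) a) (orbit (P : Subgroup G) b) := by
      intro a ha b hb hab
      rw [Set.disjoint_left]
      intro w hw hw'
      apply hab
      obtain ⟨s, rfl⟩ : b ∈ orbit S1 a := by rw [orbit_eq_iff.2 ha]; exact hb
      have haF : a ∉ F := by
        obtain ⟨r, rfl⟩ := ha
        exact hinvF (r : C) r.1.2 y2 hy2.1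
      refine (hfix s s.2 a haF ?_).symm
      rw [← orbit_eq_iff.2 hw, orbit_eq_iff.2 hw']
      exact mem_orbit_self _
    have hin : ∀ a ∈ orbit S1 y2, orbit (P : Subgroup G) a ⊆ Fᶜ \ orbit (P : Subgroup G) y := by
      rintro _ ⟨r, rfl⟩ w hw
      refine ⟨hPsub _ (hinvF (r : C) r.1.2 y2 hy2.1) hw, fun hwy => hy2.2 ?_⟩
      have h1 : ((r : C) : G) • y2 ∈ orbit (P : Subgroup G) y := by
        rw [← orbit_eq_iff.2 hwy, orbit_eq_iff.2 hw]
        exact mem_orbit_self _
      have h2 := hS1y (r : C) r.2 _ h1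
      rw [smul_left_cancel_iff] at h2
      rwa [h2] at h1
    have hu : (orbit (P : Subgroup G) a ∪ orbit (P : Subgroup G) b) ∪ orbit (P : Subgroup G) c ⊆
        Fᶜ \ orbit (P : Subgroup G) y :=
      Set.union_subset (Set.union_subset (hin a ha) (hin b hb)) (hin c hc')
    have := Set.ncard_le_ncard hu
    rw [Set.ncard_union_eq (Set.disjoint_union_left.2 ⟨hsep a ha c hc' hac, hsep b hb c hc' hbc⟩),
      Set.ncard_union_eq (hsep a ha b hb hab), Set.ncard_sdiff (hPsub y hy), hFc,
      hoc _ hy] at this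
    have hnf : ∀ a ∈ orbit S1 y2, a ∉ F := by
      rintro _ ⟨r, rfl⟩
      exact hinvF (r : C) r.1.2 y2 hy2.1
    rw [hoc _ (hnf a ha), hoc _ (hnf b hb),
      hoc _ (hnf c hc')] at this
    omega
  set S2 := stabilizer S1 y2 with hS2
  have h2 : 2 ∣ Nat.card S2 := by
    have := S2.card_mul_index
    rw [index_stabilizer] at this
    have hpos : 0 < (orbit S1 y2).ncard := (Set.ncard_pos (Set.toFinite _)).2 ⟨y2, mem_orbit_self y2⟩
    rcases hS1card with e | e <;> rw [e] at this <;> interval_cases (orbit S1 y2).ncard <;> omega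
  obtain ⟨v, hv⟩ := exists_prime_orderOf_dvd_card' 2 h2
  refine ⟨(((v : S1) : C) : G), ?_, v.1.1.2, ?_⟩
  · rw [Subgroup.orderOf_coe, Subgroup.orderOf_coe, Subgroup.orderOf_coe, hv]
  · intro x hx
    have hvy := hS1y _ v.1.2
    have hvy2 : ∀ z ∈ orbit (P : Subgroup G) y2, (((v : S1) : C) : G) • z = z := by
      rintro _ ⟨p, rfl⟩
      have hc : (p : G) * (((v : S1) : C) : G) = (((v : S1) : C) : G) * p :=
        (mem_centralizer_iff.1 v.1.1.2) p p.2
      show (((v : S1) : C) : G) • (p : G) • y2 = (p : G) • y2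
      rw [← mul_smul, ← hc, mul_smul]
      have : (((v : S1) : C) : G) • y2 = y2 := v.2
      rw [this]
    by_cases h1 : x ∈ orbit (P : Subgroup G) y
    · exact hvy x h1
    by_cases h2' : x ∈ orbit (P : Subgroup G) y2
    · exact hvy2 x h2'
    set R := (Fᶜ \ orbit (P : Subgroup G) y) \ orbit (P : Subgroup G) y2 with hR
    have hd12 : Disjoint (orbit (P : Subgroup G) y2) (orbit (P : Subgroup G) y) := by
      rw [Set.disjoint_left]
      intro z hz hz'
      apply hy2.2
      rw [← orbit_eq_iff.2 hz', orbit_eq_iff.2 hz]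
      exact mem_orbit_self y2
    have hR19 : R.ncard = 19 := by
      rw [hR, Set.ncard_sdiff, Set.ncard_sdiff (hPsub y hy), hFc, hoc _ hy,
        hoc _ hy2.1]
      intro z hz
      exact ⟨hPsub y2 hy2.1 hz, fun h => Set.disjoint_left.1 hd12 hz h⟩
    have hxR : x ∈ R := ⟨⟨hx, h1⟩, h2'⟩
    have hsubR : orbit (P : Subgroup G) x ⊆ R := by
      intro z hz
      refine ⟨⟨hPsub x hx hz, fun h => h1 ?_⟩, fun h => h2' ?_⟩
      · rw [← orbit_eq_iff.2 h, orbit_eq_iff.2 hz]; exact mem_orbit_self x
      · rw [← orbit_eq_iff.2 h, orbit_eq_iff.2 hz]; exact mem_orbit_self x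
    have hRx : orbit (P : Subgroup G) x = R :=
      Set.eq_of_subset_of_ncard_le hsubR (by rw [hR19, hoc _ hx])
    refine hfix _ v.1.2 x hx ?_
    rw [hRx]
    refine ⟨⟨hinvF _ v.1.1.2 x hx, fun h => h1 ?_⟩, fun h => h2' ?_⟩
    · have := hvy _ h
      rw [smul_left_cancel_iff] at this
      rwa [this] at h
    · have := hvy2 _ h
      rw [smul_left_cancel_iff] at this
      rwa [this] at h

lemma k_twelve {t : G} (ht : t ∈ centralizer ((P : Subgroup G) : Set G)) (ht2 : orderOf t = 2)
    (hbig : ¬ centralizer ({t} : Set G) ≤ normalizer ((P : Subgroup G) : Set G))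
    (hk : Nat.card (centralizer ((P : Subgroup G) : Set G)) = 19 * 12) : False := by
  classical
  set C := centralizer ((P : Subgroup G) : Set G) with hC
  set N := normalizer ((P : Subgroup G) : Set G) with hN
  set H := centralizer ({t} : Set G) with hH
  obtain ⟨v, hv2, hvC, hvfix⟩ := nFixing hG P ht ht2 hbig hk
  obtain ⟨h76, h63, heq, h6⟩ := six hG P ht ht2 hbig
  obtain ⟨hcl, hcl6⟩ := nClass_eq hG P ht ht2 hbig
  set F := fixedPoints (P : Subgroup G) (G ⧸ H) with hF
  have htne : t ≠ 1 := by intro h; rw [h, orderOf_one] at ht2; norm_num at ht2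
  have hvne : v ≠ 1 := by intro h; rw [h, orderOf_one] at hv2; norm_num at hv2
  -- `v` is not a conjugate of `t`
  have hvnot : v ∉ nClass P t := by
    intro hv
    obtain ⟨n0, hn0, hn0v⟩ := hv
    have hall : ∀ u ∈ nClass P t, ∀ x ∉ F, u * conjAt t x = conjAt t x * u := by
      rintro _ ⟨n, hn, rfl⟩ x hx
      have hm : n * n0⁻¹ ∈ N := mul_mem hn (inv_mem hn0)
      have hmx : (n * n0⁻¹)⁻¹ • x ∉ F := fun h => hx (by
        have := smul_fixed hG P hm _ h
        rwa [smul_inv_smul] at this)
      have h1 := hvfix _ hmx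
      have h2 : ((n * n0⁻¹) * v * (n * n0⁻¹)⁻¹) • x = x := by
        rw [mul_smul, mul_smul, h1, smul_inv_smul]
      rw [smul_eq_iff, ← hn0v] at h2
      have e : n * n0⁻¹ * (n0 * t * n0⁻¹) * (n * n0⁻¹)⁻¹ = n * t * n⁻¹ := by group
      rwa [e] at h2
    set K := closure (nClass P t) with hK
    have hnorm : ∀ g : G, g * t * g⁻¹ ∈ normalizer (K : Set G) := by
      intro g
      by_cases hx : (QuotientGroup.mk g : G ⧸ H) ∈ F
      · have : g * t * g⁻¹ ∈ K := subset_closure (by rw [hcl]; exact ⟨_, hx, conjAt_mk t g⟩)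
        exact le_normalizer this
      · apply centralizer_le_normalizer
        rw [mem_centralizer_iff]
        intro k hk'
        induction hk' using closure_induction with
        | mem u hu => exact hall u hu _ hx
        | one => simp
        | mul a b _ _ ha hb => exact (Commute.mul_left ha hb : Commute (a * b) _)
        | inv a _ ha => exact (Commute.inv_left ha : Commute a⁻¹ _)
    have hncl : normalClosure ({t} : Set G) = ⊤ := by
      rcases (normalClosure_normal : (normalClosure ({t} : Set G)).Normal).eq_bot_or_eq_top with h | h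
      · exfalso; apply htne
        have := subset_normalClosure (Set.mem_singleton t)
        rwa [SetLike.mem_coe, h, mem_bot] at this
      · exact h
    have hKn : K.Normal := by
      rw [← normalizer_eq_top_iff, eq_top_iff, ← hncl, normalClosure, closure_le]
      intro a ha
      rw [Group.mem_conjugatesOfSet_iff] at ha
      obtain ⟨b, rfl, hba⟩ := ha
      obtain ⟨c, rfl⟩ := isConj_iff.1 hba
      exact hnorm c
    have hKC : K ≤ C := (closure_le _).2 fun u hu => (nClass_subset hG P ht ht2 hu).1
    rcases hKn.eq_bot_or_eq_top with h | h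
    · apply htne
      have : t ∈ K := subset_closure ⟨1, one_mem _, by simp⟩
      rwa [h, mem_bot] at this
    · have hCtop : C = ⊤ := top_le_iff.1 (h ▸ hKC)
      rw [hCtop, card_top, hG] at hk
      norm_num at hk
  have hvle : centralizer ({v} : Set G) ≤ N := by
    by_contra hvbig
    obtain ⟨-, hcl6'⟩ := nClass_eq hG P hvC hv2 hvbig
    have hd : Disjoint (nClass P t) (nClass P v) := by
      rw [Set.disjoint_left]
      rintro u ⟨n, hn, rfl⟩ ⟨m, hm, he⟩
      apply hvnot
      refine ⟨m⁻¹ * n, mul_mem (inv_mem hm) hn, ?_⟩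
      calc m⁻¹ * n * t * (m⁻¹ * n)⁻¹ = m⁻¹ * (n * t * n⁻¹) * m := by group
        _ = m⁻¹ * (m * v * m⁻¹) * m := by rw [he]
        _ = v := by group
    have hsub : insert (1 : G) (nClass P t ∪ nClass P v) ⊆ {x : G | x ∈ C ∧ x * x = 1} := by
      rintro x (rfl | hx | hx)
      · exact ⟨one_mem _, one_mul 1⟩
      · exact ⟨(nClass_subset hG P ht ht2 hx).1, (nClass_subset hG P ht ht2 hx).2.1⟩
      · exact ⟨(nClass_subset hG P hvC hv2 hx).1, (nClass_subset hG P hvC hv2 hx).2.1⟩
    have := (Set.ncard_le_ncard hsub).trans (sq_one_count hG P hk)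
    rw [Set.ncard_insert_of_notMem, Set.ncard_union_eq hd, hcl6, hcl6'] at this
    · omega
    · rintro (h | h)
      · have := (nClass_subset hG P ht ht2 h).2.2; rw [orderOf_one] at this; norm_num at this
      · have := (nClass_subset hG P hvC hv2 h).2.2; rw [orderOf_one] at this; norm_num at this
  -- counting
  set Hv := centralizer ({v} : Set G) with hHv
  have hc : 1008 ≤ Nat.card (G ⧸ Hv) := by
    have h1 := Subgroup.index_dvd_of_le hvle
    have h2 := card_mul_index' hG N
    rw [card_N hG P] at h2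
    have h3 : N.index = 1008 := by omega
    rw [h3] at h1
    exact Nat.le_of_dvd (Nat.pos_of_ne_zero index_ne_zero_of_finite) h1
  letI := Fintype.ofFinite (G ⧸ Hv)
  letI := Fintype.ofFinite (G ⧸ H)
  set supp : G ⧸ Hv → Finset (G ⧸ H) := fun y => Finset.univ.filter fun x => conjAt v y • x ≠ x
  set base : G ⧸ Hv := QuotientGroup.mk 1 with hbase
  have hmk : ∀ a : G, conjAt v (QuotientGroup.mk a : G ⧸ Hv) = a * v * a⁻¹ := conjAt_mk v
  have hsm : ∀ (g : G) (y : G ⧸ Hv), conjAt v (g • y) = g * conjAt v y * g⁻¹ := conjAt_smul v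
  have hb : conjAt v base = v := by rw [hbase, conjAt_mk, one_mul, inv_one, mul_one]
  have hs : (supp base).card ≤ 6 := by
    rw [← h6, Set.ncard_eq_toFinset_card']
    apply Finset.card_le_card
    intro x hx
    rw [Set.mem_toFinset]
    by_contra hxF
    simp [supp, hb, hvfix x hxF] at hx
  have hcard : ∀ y, (supp y).card = (supp base).card := by
    intro y
    induction y using QuotientGroup.induction_on with
    | H a =>
      refine Finset.card_nbij' (fun x => a⁻¹ • x) (fun x => a • x) ?_ ?_ ?_ ?_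
      · intro x hx
        simp only [supp, Finset.coe_filter, Finset.mem_univ, true_and, Set.mem_setOf_eq, hb,
          hmk] at hx ⊢
        intro h; apply hx
        rw [mul_smul, mul_smul, h, smul_inv_smul]
      · intro x hx
        simp only [supp, Finset.coe_filter, Finset.mem_univ, true_and, Set.mem_setOf_eq, hb,
          hmk] at hx ⊢
        intro h; apply hx
        rw [mul_smul, mul_smul, inv_smul_smul, smul_left_cancel_iff] at h
        exact h
      · intro x _; simp
      · intro x _; simp
  set r : G ⧸ H → Finset (G ⧸ Hv) := fun x => Finset.univ.filter fun y => x ∈ supp y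
  have hr : ∀ x x' : G ⧸ H, (r x).card = (r x').card := by
    intro x x'
    obtain ⟨g, rfl⟩ := MulAction.exists_smul_eq G x x'
    refine Finset.card_nbij' (fun y => g • y) (fun y => g⁻¹ • y) ?_ ?_ ?_ ?_
    · intro y hy
      simp only [r, supp, Finset.coe_filter, Finset.mem_univ, true_and, Set.mem_setOf_eq,
        Finset.mem_filter, hsm] at hy ⊢
      intro h; apply hy
      rw [mul_smul, mul_smul, inv_smul_smul, smul_left_cancel_iff] at h
      exact h
    · intro y hy
      simp only [r, supp, Finset.coe_filter, Finset.mem_univ, true_and, Set.mem_setOf_eq,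
        Finset.mem_filter, hsm] at hy ⊢
      intro h; apply hy
      rw [inv_inv, mul_smul, mul_smul, inv_smul_eq_iff] at h
      exact h
    · intro y _; simp
    · intro y _; simp
  set x0 : G ⧸ H := QuotientGroup.mk 1 with hx0
  set c := Nat.card (G ⧸ Hv) with hc'
  set s := (supp base).card with hs'
  have h63r : 63 * (r x0).card = c * s := by
    have h1 : ∑ x, (r x).card = ∑ y, (supp y).card := by
      simp only [r, Finset.card_filter]
      rw [Finset.sum_comm]
      refine Finset.sum_congr rfl fun y _ => ?_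
      rw [← Finset.card_filter, Finset.filter_mem_eq_inter, Finset.univ_inter]
    rw [Finset.sum_congr rfl (fun x _ => hr x x0), Finset.sum_congr rfl (fun y _ => hcard y),
      Finset.sum_const, Finset.sum_const, smul_eq_mul, smul_eq_mul, Finset.card_univ,
      Finset.card_univ, ← Nat.card_eq_fintype_card, ← Nat.card_eq_fintype_card] at h1
    rwa [show Nat.card (G ⧸ H) = 63 from h63] at h1
  set A := Finset.univ.filter fun y => ¬ Disjoint (supp y) (supp base) with hA
  have hAcard : A.card ≤ s * (r x0).card := by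
    calc A.card ≤ ((supp base).biUnion r).card := by
          apply Finset.card_le_card
          intro y hy
          simp only [A, Finset.mem_filter, Finset.mem_univ, true_and, Finset.not_disjoint_iff] at hy
          obtain ⟨x, hx, hx'⟩ := hy
          simp only [Finset.mem_biUnion, r, Finset.mem_filter, Finset.mem_univ, true_and]
          exact ⟨x, hx', hx⟩
      _ ≤ ∑ x ∈ supp base, (r x).card := Finset.card_biUnion_le
      _ = s * (r x0).card := by
          rw [Finset.sum_congr rfl (fun x _ => hr x x0), Finset.sum_const, smul_eq_mul]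
  have hcommute : ∀ y, y ∉ A → conjAt v y * v = v * conjAt v y := by
    intro y hy
    simp only [A, Finset.mem_filter, Finset.mem_univ, true_and, not_not, Finset.disjoint_left] at hy
    set w := conjAt v y with hw
    have hmem : ∀ x : G ⧸ H, x ∈ supp y ↔ w • x ≠ x := fun x => by simp [supp, hw]
    have hmem0 : ∀ x : G ⧸ H, x ∈ supp base ↔ v • x ≠ x := fun x => by simp [supp, hb]
    have key : ∀ x : G ⧸ H, (w * v) • x = (v * w) • x := by
      intro x
      rw [mul_smul, mul_smul]
      by_cases hwx : w • x = x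
      · by_cases hvx : v • x = x
        · rw [hvx, hwx, hvx]
        · have : w • (v • x) = v • x := by
            by_contra h
            exact hy ((hmem _).2 h) ((hmem0 _).2 (fun h' => hvx (smul_left_cancel v h')))
          rw [this, hwx]
      · have hvx : v • x = x := by
          by_contra h
          exact hy ((hmem _).2 hwx) ((hmem0 _).2 h)
        have : v • (w • x) = w • x := by
          by_contra h
          exact hy ((hmem _).2 (fun h' => hwx (smul_left_cancel w h'))) ((hmem0 _).2 h)
        rw [hvx, this]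
    have h1 : (v * w)⁻¹ * (w * v) = 1 := eq_one_of_forall_smul (centralizer_ne_top hG htne) _
      fun x => by rw [mul_smul, key, inv_smul_smul]
    exact (inv_mul_eq_one.1 h1).symm
  have hcount : (Aᶜ).card ≤ 240 := by
    have hP456 := card_N hG P
    have h216 : 216 ≤ {x : G | x ∈ C ∧ ¬ x * x = 1}.ncard := by
      have h1 : {x : G | x ∈ C ∧ x * x = 1}.ncard ≤ 12 := sq_one_count hG P hk
      have h2 : {x : G | x ∈ C ∧ ¬ x * x = 1} = (C : Set G) \ {x : G | x ∈ C ∧ x * x = 1} := by
        ext x; simp; tauto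
      rw [h2, Set.ncard_sdiff (fun x hx => hx.1)]
      have : (C : Set G).ncard = 228 := by
        rw [← Nat.card_coe_set_eq]; exact hk.trans (by norm_num)
      omega
    have hsub : {x : G | x ∈ N ∧ x * x = 1} ⊆ (N : Set G) \ {x : G | x ∈ C ∧ ¬ x * x = 1} := by
      intro x hx; exact ⟨hx.1, fun h => h.2 hx.2⟩
    have h3 := Set.ncard_le_ncard hsub
    rw [Set.ncard_sdiff (fun x hx => centralizer_le_normalizer _ hx.1)] at h3
    change _ ≤ (N : Set G).ncard - _ at h3
    have h4 : (N : Set G).ncard = 456 := by rw [← Nat.card_coe_set_eq]; exact hP456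
    have h5 : (Aᶜ).card ≤ {x : G | x ∈ N ∧ x * x = 1}.ncard := by
      rw [← Set.ncard_coe_finset]
      apply Set.ncard_le_ncard_of_injOn (conjAt v)
      · intro y hy
        rw [Finset.mem_coe, Finset.mem_compl] at hy
        refine ⟨hvle ?_, ?_⟩
        · rw [mem_centralizer_singleton_iff]; exact hcommute y hy
        · induction y using QuotientGroup.induction_on with
          | H a =>
            rw [conjAt_mk]
            have : v * v = 1 := by rw [← pow_two, ← hv2, pow_orderOf_eq_one]
            calc a * v * a⁻¹ * (a * v * a⁻¹) = a * (v * v) * a⁻¹ := by group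
              _ = 1 := by rw [this]; group
      · exact fun a _ b _ h => conjAt_injective v h
    omega
  have htot : A.card + (Aᶜ).card = c := by
    rw [Finset.card_add_card_compl, hc', Nat.card_eq_fintype_card]
  have hA63 : 63 * A.card ≤ 36 * c := by
    calc 63 * A.card ≤ 63 * (s * (r x0).card) := Nat.mul_le_mul_left _ hAcard
      _ = s * (63 * (r x0).card) := by ring
      _ = s * s * c := by rw [h63r]; ring
      _ ≤ 36 * c := Nat.mul_le_mul_right _ (by
          calc s * s ≤ 6 * 6 := Nat.mul_le_mul hs hs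
            _ = 36 := by norm_num)
  omega

/-- Every involution centralising `P` has its centralizer inside `N(P)`. -/
theorem centralizer_le {t : G} (ht : t ∈ centralizer ((P : Subgroup G) : Set G))
    (ht2 : orderOf t = 2) :
    centralizer ({t} : Set G) ≤ normalizer ((P : Subgroup G) : Set G) := by
  by_contra hbig
  obtain ⟨k, hk, hk'⟩ := card_C hG P
  rcases hk' with rfl | rfl | rfl
  · obtain ⟨-, h6⟩ := nClass_eq hG P ht ht2 hbig
    have hsub : nClass P t ⊆ {x : G | x ∈ centralizer ((P : Subgroup G) : Set G) ∧ x * x = 1} :=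
      fun x hx => ⟨(nClass_subset hG P ht ht2 hx).1, (nClass_subset hG P ht ht2 hx).2.1⟩
    have := (Set.ncard_le_ncard hsub).trans (sq_one_count hG P hk)
    omega
  · exact k_eight hG P ht ht2 hbig hk
  · exact k_twelve hG P ht ht2 hbig hk

include P in
theorem contradiction : False := by
  haveI : Fact (Nat.Prime 2) := ⟨Nat.prime_two⟩
  set C := centralizer ((P : Subgroup G) : Set G) with hC
  set N := normalizer ((P : Subgroup G) : Set G) with hN
  obtain ⟨k, hk, hk'⟩ := card_C hG P
  obtain ⟨T0⟩ : Nonempty (Sylow 2 C) := inferInstance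
  set T : Subgroup G := (T0 : Subgroup C).map C.subtype with hT
  have hTC : T ≤ C := map_subtype_le _
  have hT2 : IsPGroup 2 T := T0.2.map _
  have hT4 : 4 ∣ Nat.card T := by
    rw [hT, card_map_of_injective C.subtype_injective]
    have := T0.pow_dvd_card_of_pow_dvd_card (n := 2) (by
      rw [hk]; rcases hk' with h | h | h <;> subst h <;> norm_num)
    simpa using this
  obtain ⟨S, hTS⟩ := hT2.exists_le_sylow
  have hS : Nat.card S = 128 := by
    rw [S.card_eq_multiplicity, hG]
    have : (459648).factorization 2 = 7 := by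
      rw [Nat.factorization_def _ Nat.prime_two, show (459648 : ℕ) = 2 ^ 7 * 3591 from rfl,
        padicValNat.mul (by norm_num) (by norm_num), padicValNat.prime_pow,
        padicValNat.eq_zero_of_not_dvd (by norm_num)]
    rw [this]; norm_num
  have hsmallN : ∀ R : Subgroup G, R ≤ N → IsPGroup 2 R → Nat.card R ∣ 8 := by
    intro R hR hR2
    obtain ⟨n, hn⟩ := hR2.exists_card_eq
    have h1 := Subgroup.card_dvd_of_le hR
    rw [card_N hG P, hn] at h1
    rw [hn]
    rw [show (456 : ℕ) = 2 ^ 3 * 57 from rfl] at h1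
    exact (Nat.Coprime.pow_left n (by norm_num)).dvd_of_dvd_mul_right h1
  have hNC : C ≤ N := centralizer_le_normalizer _
  have hT8 : Nat.card T ∣ 8 := hsmallN T (hTC.trans hNC) hT2
  -- M = N_S(T)
  set M : Subgroup G := normalizer (T : Set G) ⊓ S with hM
  have hTM : T ≤ M := le_inf le_normalizer hTS
  have hM2 : IsPGroup 2 M := S.2.to_le inf_le_right
  have hMN : M ≤ N := by
    intro s hs
    haveI : (T.subgroupOf M).Normal := (normal_subgroupOf_iff_le_normalizer hTM).2 inf_le_left
    haveI : Nontrivial (T.subgroupOf M) := by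
      rw [← Finite.one_lt_card_iff_nontrivial, Nat.card_congr (subgroupOfEquivOfLe hTM).toEquiv]
      have := Nat.le_of_dvd Nat.card_pos hT4
      omega
    obtain ⟨z, hz, hz1, hzc⟩ : ∃ z : M, z ∈ T.subgroupOf M ∧ z ≠ 1 ∧ z ∈ center M := by
      obtain ⟨z, hz1⟩ := Subgroup.ne_bot_iff_exists_ne_one.1
        (Cfsg.Lib.Transfer.inf_center_ne_bot hM2 (T.subgroupOf M) (Subgroup.nontrivial_iff_ne_bot _ |>.1 inferInstance))
      exact ⟨z, z.2.1, fun h => hz1 (Subtype.ext h), z.2.2⟩
    obtain ⟨j, hj⟩ : ∃ j, orderOf z = 2 ^ (j + 1) := by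
      obtain ⟨j, hj⟩ := (IsPGroup.iff_orderOf.1 hM2) z
      cases j with
      | zero => rw [pow_zero, orderOf_eq_one_iff] at hj; exact absurd hj hz1
      | succ j => exact ⟨j, hj⟩
    set u := z ^ (2 ^ j) with hu
    have hu2 : orderOf (u : G) = 2 := by
      rw [Subgroup.orderOf_coe, hu, orderOf_pow' _ (by positivity), hj,
        Nat.gcd_eq_right (pow_dvd_pow 2 (Nat.le_succ j)), pow_succ,
        Nat.mul_div_cancel_left _ (by positivity)]
    have huT : (u : G) ∈ T := (T.subgroupOf M).pow_mem hz _
    apply centralizer_le hG P (hTC huT) hu2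
    rw [mem_centralizer_singleton_iff]
    have := mem_center_iff.1 (pow_mem hzc (2 ^ j) : u ∈ center M) ⟨s, hs⟩
    exact congrArg Subtype.val this
  have hlt : Nat.card T < Nat.card M := by
    have hTne : T.subgroupOf S < ⊤ := by
      rw [lt_top_iff_ne_top]
      intro h
      rw [subgroupOf_eq_top] at h
      have := Subgroup.card_dvd_of_le h
      rw [hS] at this
      have := Nat.le_of_dvd (by norm_num) (this.trans hT8)
      omega
    haveI := S.2.isNilpotent
    have h := normalizerCondition_of_isNilpotent (T.subgroupOf S) hTne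
    rw [← subgroupOf_normalizer_eq hTS] at h
    have hcard := Set.ncard_lt_ncard (SetLike.coe_ssubset_coe.2 h)
    rw [← Nat.card_coe_set_eq, ← Nat.card_coe_set_eq] at hcard
    change Nat.card (T.subgroupOf S) < Nat.card ((normalizer (T : Set G)).subgroupOf S) at hcard
    rw [Nat.card_congr (subgroupOfEquivOfLe hTS).toEquiv, ← inf_subgroupOf_right,
      Nat.card_congr (subgroupOfEquivOfLe inf_le_right).toEquiv] at hcard
    exact hcard
  have hM8 : Nat.card M = 8 ∧ Nat.card T = 4 := by
    have h1 := Nat.le_of_dvd (by norm_num) (hsmallN M hMN hM2)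
    have h2 := hsmallN M hMN hM2
    obtain ⟨a, ha⟩ := hT4
    have hpos : 0 < Nat.card T := Nat.card_pos
    have hT : Nat.card T = 4 := by omega
    refine ⟨?_, hT⟩
    rw [hT] at hlt
    interval_cases hh : Nat.card M <;> norm_num at *
  set R : Subgroup G := normalizer (M : Set G) ⊓ S with hR
  have hMS : M ≤ S := inf_le_right
  have hRN : R ≤ N := by
    intro s hs
    set T' := T.map (MulAut.conj s).toMonoidHom with hT'
    have hT'M : T' ≤ M := by
      rintro _ ⟨a, ha, rfl⟩
      exact (Subgroup.mem_normalizer_iff.1 hs.1 a).1 (hTM ha)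
    have hint : (T ⊓ T' : Subgroup G) ≠ ⊥ := by
      intro h
      have h1 : Function.Injective (fun x : T × T' => (⟨x.1.1 * x.2.1,
          mul_mem (hTM x.1.2) (hT'M x.2.2)⟩ : M)) := by
        rintro ⟨a, b⟩ ⟨a', b'⟩ he
        simp only [Subtype.mk.injEq] at he
        have hd : (a' : G)⁻¹ * a = b' * (b : G)⁻¹ := by
          rw [inv_mul_eq_iff_eq_mul, ← mul_assoc, ← he, mul_inv_cancel_right]
        have hmem : (a' : G)⁻¹ * a ∈ T ⊓ T' :=
          Subgroup.mem_inf.2 ⟨T.mul_mem (T.inv_mem a'.2) a.2, hd ▸ T'.mul_mem b'.2 (T'.inv_mem b.2)⟩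
        rw [h, mem_bot] at hmem
        have ha : (a : G) = a' := (inv_mul_eq_one.1 hmem).symm
        rw [ha, mul_right_inj] at he
        exact Prod.ext (Subtype.ext ha) (Subtype.ext he)
      have h2 := Nat.card_le_card_of_injective _ h1
      rw [Nat.card_prod, hM8.1, hM8.2, card_map_of_injective (MulAut.conj s).injective, hM8.2] at h2
      norm_num at h2
    obtain ⟨z, hz⟩ : ∃ z : (T ⊓ T' : Subgroup G), orderOf z = 2 := by
      apply exists_prime_orderOf_dvd_card' 2
      obtain ⟨n, hn⟩ := (hT2.to_le inf_le_left : IsPGroup 2 (T ⊓ T' : Subgroup G)).exists_card_eq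
      cases n with
      | zero => rw [pow_zero] at hn; exact absurd (Subgroup.card_eq_one.1 hn) hint
      | succ n => rw [hn]; exact ⟨2 ^ n, by ring⟩
    have hz2 : orderOf (z : G) = 2 := by rw [Subgroup.orderOf_coe, hz]
    obtain ⟨a, ha, hae⟩ := z.2.2
    have hCz := centralizer_le hG P (hTC z.2.1) hz2
    have hPs : (P : Subgroup G).map (MulAut.conj s).toMonoidHom ≤ N := by
      rintro _ ⟨p, hp, rfl⟩
      apply hCz
      rw [mem_centralizer_singleton_iff, ← hae]
      show s * p * s⁻¹ * (s * a * s⁻¹) = s * a * s⁻¹ * (s * p * s⁻¹)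
      have := (mem_centralizer_iff.1 (hTC ha)) p hp
      calc s * p * s⁻¹ * (s * a * s⁻¹) = s * (p * a) * s⁻¹ := by group
        _ = s * (a * p) * s⁻¹ := by rw [this]
        _ = s * a * s⁻¹ * (s * p * s⁻¹) := by group
    have hco : ((s • P : Sylow 19 G) : Subgroup G) = (P : Subgroup G).map (MulAut.conj s).toMonoidHom := by
      rw [Sylow.coe_subgroup_smul]; rfl
    have hnP : ((P : Subgroup G).subgroupOf N).Normal :=
      (normal_subgroupOf_iff_le_normalizer le_normalizer).2 le_rfl
    let PN : Sylow 19 N := P.subtype le_normalizer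
    haveI : Subsingleton (Sylow 19 N) := by
      haveI : (PN : Subgroup N).Normal := hnP
      have := PN.unique_of_normal hnP
      infer_instance
    apply Sylow.smul_eq_iff_mem_normalizer.1
    exact Sylow.subtype_injective (hP := hco.symm ▸ hPs) (hQ := le_normalizer)
      (Subsingleton.elim (α := Sylow 19 N) _ _)
  have hR8 := Nat.le_of_dvd (by norm_num) (hsmallN R hRN (S.2.to_le inf_le_right))
  have hMne : M.subgroupOf S < ⊤ := by
    rw [lt_top_iff_ne_top]
    intro h
    rw [subgroupOf_eq_top] at h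
    have := Subgroup.card_dvd_of_le h
    rw [hS, hM8.1] at this
    norm_num at this
  haveI := S.2.isNilpotent
  have h := normalizerCondition_of_isNilpotent (M.subgroupOf S) hMne
  rw [← subgroupOf_normalizer_eq hMS] at h
  have hcard := Set.ncard_lt_ncard (SetLike.coe_ssubset_coe.2 h)
  rw [← Nat.card_coe_set_eq, ← Nat.card_coe_set_eq] at hcard
  change Nat.card (M.subgroupOf S) < Nat.card ((normalizer (M : Set G)).subgroupOf S) at hcard
  rw [Nat.card_congr (subgroupOfEquivOfLe hMS).toEquiv, ← inf_subgroupOf_right,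
    Nat.card_congr (subgroupOfEquivOfLe inf_le_right).toEquiv, hM8.1, ← hR] at hcard
  omega

end WithP

theorem card_ne : Nat.card G ≠ 459648 := by
  intro hG
  haveI : Fact (Nat.Prime 19) := ⟨by norm_num⟩
  obtain ⟨P⟩ : Nonempty (Sylow 19 G) := inferInstance
  exact contradiction hG P

end Cfsg.Lib.Small459648
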